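import Cfsg.Agent.Lch.Model

/-!
# Counting vectors of square length 32
-/

set_option autoImplicit false

namespace Cfsg.Agent.Lch

open Finset Cfsg.Agent.Stn

theorem one_term {a : Fin 24 → ℤ} (h0 : ∀ i, 0 ≤ a i) (h1 : ∑ i, a i = 1) : ∃ j, a j = 1 ∧ ∀ i, i ≠ j → a i = 0 := by
  obtain ⟨j, hj⟩ : ∃ j, a j ≠ 0 := by
    by_contra hn
    push Not at hn
    rw [sum_congr rfl (fun i _ => hn i), sum_const_zero] at h1
    omega
  have h2 := add_sum_erase univ a (mem_univ j)
  have h3 : 0 ≤ ∑ i ∈ univ.erase j, a i := sum_nonneg (fun i _ => h0 i)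
  have h4 := h0 j
  have h5 : a j = 1 := by omega
  have h6 : ∑ i ∈ univ.erase j, a i = 0 := by omega
  rw [sum_eq_zero_iff_of_nonneg (fun i _ => h0 i)] at h6
  exact ⟨j, h5, fun i hi => h6 i (mem_erase.2 ⟨hi, mem_univ i⟩)⟩

theorem odd_shape {x : Fin 24 → ℤ} (hodd : ∀ i, ¬ (2 : ℤ) ∣ x i) (hs : sq x = 32) : ∃ j, x j ^ 2 = 9 ∧ ∀ i, i ≠ j → x i ^ 2 = 1 := by
  have h1 : ∀ i, ∃ a : ℤ, x i ^ 2 = 1 + 8 * a ∧ 0 ≤ a := by
    intro i
    obtain ⟨k, hk⟩ : ∃ k, x i = 2 * k + 1 := ⟨x i / 2, by have := hodd i; omega⟩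
    obtain ⟨m, hm⟩ := Int.even_mul_succ_self k
    refine ⟨m, ?_, ?_⟩
    · rw [hk]; nlinarith
    · nlinarith [sq_nonneg (2 * k + 1)]
  choose a ha ha0 using h1
  have h2 : ∑ i, a i = 1 := by
    unfold sq at hs
    rw [sum_congr rfl (fun i _ => ha i), sum_add_distrib, ← mul_sum] at hs
    simp at hs
    omega
  obtain ⟨j, hj, hj'⟩ := one_term ha0 h2
  refine ⟨j, by rw [ha, hj]; norm_num, fun i hi => by rw [ha, hj' i hi]; norm_num⟩

/-- sign -/
def sg (s : Bool) : ℤ := if s then 1 else -1

/-- index set of the vectors (±4, ±4, 0...) -/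
def D4 : Finset (Fin 24 × Fin 24 × Bool × Bool) := univ.filter fun p => p.1 < p.2.1

theorem card_D4 : D4.card = 1104 := by decide +kernel

/-- vector (±4, ±4, 0...) -/
def f4 (p : Fin 24 × Fin 24 × Bool × Bool) : Fin 24 → ℤ := Pi.single p.1 (4 * sg p.2.2.1) + Pi.single p.2.1 (4 * sg p.2.2.2)

theorem sq_one {a : ℤ} (h : a ^ 2 = 1) : ∃ s, a = sg s := by
  have h1 : a = 1 ∨ a = -1 := by
    have h2 : (a - 1) * (a + 1) = 0 := by nlinarith
    rcases mul_eq_zero.1 h2 with h3 | h3
    · left; omega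
    · right; omega
  rcases h1 with h | h
  · exact ⟨true, h⟩
  · exact ⟨false, h⟩

theorem shape4 {x : Fin 24 → ℤ} (h4 : ∀ i, (4 : ℤ) ∣ x i) (hs : sq x = 32) : x ∈ D4.image f4 := by
  choose y hy using h4
  have h1 : ∑ i, y i ^ 2 = 2 := by
    unfold sq at hs
    rw [sum_congr rfl (fun i _ => by rw [hy i]; ring : ∀ i ∈ univ, x i ^ 2 = 16 * y i ^ 2), ← mul_sum] at hs
    omega
  obtain ⟨j, hj⟩ : ∃ j, y j ≠ 0 := by
    by_contra hn
    push Not at hn
    rw [sum_congr rfl (fun i _ => by rw [hn i]; norm_num : ∀ i ∈ univ, y i ^ 2 = 0), sum_const_zero] at h1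
    omega
  have h2 := add_sum_erase univ (fun i => y i ^ 2) (mem_univ j)
  have h3 : 0 ≤ ∑ i ∈ univ.erase j, y i ^ 2 := sum_nonneg (fun i _ => sq_nonneg _)
  have h5 : y j ^ 2 = 1 := by
    have h6 : 0 < y j ^ 2 := by positivity
    have h7 : y j ^ 2 ≤ 2 := by omega
    have h8 : y j ^ 2 ≠ 2 := by
      intro h8
      have h9 : y j < 2 := by nlinarith
      have h10 : -2 < y j := by nlinarith
      interval_cases (y j) <;> norm_num at h8
    omega
  have h6 : ∑ i, (if i = j then 0 else y i ^ 2) = 1 := by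
    have h7 := add_sum_erase univ (fun i => if i = j then 0 else y i ^ 2) (mem_univ j)
    simp only [if_true] at h7
    have h8 : ∑ i ∈ univ.erase j, (if i = j then 0 else y i ^ 2) = ∑ i ∈ univ.erase j, y i ^ 2 := by
      apply sum_congr rfl
      intro i hi
      rw [if_neg (mem_erase.1 hi).1]
    rw [← h7, h8]
    omega
  obtain ⟨k, hk, hk'⟩ := one_term (fun i => by split_ifs; exact le_rfl; exact sq_nonneg _) h6
  have hkj : k ≠ j := by
    rintro rfl
    rw [if_pos rfl] at hk; omega
  rw [if_neg hkj] at hk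
  have h0 : ∀ i, i ≠ j → i ≠ k → y i = 0 := by
    intro i hij hik
    have := hk' i hik
    rw [if_neg hij] at this
    exact pow_eq_zero_iff (by norm_num) |>.1 this
  obtain ⟨s, hs'⟩ := sq_one h5
  obtain ⟨t, ht⟩ := sq_one hk
  have hx : ∀ i, x i = (Pi.single j (4 * sg s) + Pi.single k (4 * sg t) : Fin 24 → ℤ) i := by
    intro i
    rw [Pi.add_apply]
    by_cases hij : i = j
    · subst hij
      rw [Pi.single_eq_same, Pi.single_eq_of_ne hkj.symm, hy, hs', add_zero]
    · by_cases hik : i = k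
      · subst hik
        rw [Pi.single_eq_same, Pi.single_eq_of_ne hij, hy, ht, zero_add]
      · rw [Pi.single_eq_of_ne hij, Pi.single_eq_of_ne hik, hy, h0 i hij hik]; norm_num
  rw [mem_image]
  rcases lt_or_gt_of_ne hkj with hlt | hlt
  · refine ⟨(k, j, t, s), ?_, ?_⟩
    · rw [D4, mem_filter]; exact ⟨mem_univ _, hlt⟩
    · funext i; rw [hx i, f4, add_comm]
  · refine ⟨(j, k, s, t), ?_, ?_⟩
    · rw [D4, mem_filter]; exact ⟨mem_univ _, hlt⟩
    · funext i; rw [hx i, f4]

namespace Lam
variable {Λ : AddSubgroup (Fin 24 → ℤ)} (h : Lam Λ)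

/-- the set of coordinates not divisible by four -/
def odd4 (x : Fin 24 → ℤ) : Finset (Fin 24) := univ.filter fun i => ¬ (4 : ℤ) ∣ x i

theorem mem_odd4 {x : Fin 24 → ℤ} {i : Fin 24} : i ∈ odd4 x ↔ ¬ (4 : ℤ) ∣ x i := by
  rw [odd4, mem_filter]; exact ⟨fun h => h.2, fun h => ⟨mem_univ _, h⟩⟩

theorem odd4_code {x : Fin 24 → ℤ} (hx : x ∈ Λ) (hev : ∀ i, (2 : ℤ) ∣ x i) : odd4 x ∈ code Λ := by
  rw [mem_code]
  refine ⟨x, hx, ?_⟩
  intro i
  unfold ch
  have := hev i
  by_cases hi : i ∈ odd4 x
  · rw [if_pos hi]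
    rw [mem_odd4] at hi
    omega
  · rw [if_neg hi]
    rw [mem_odd4, not_not] at hi
    omega

include h

theorem shape2 {x : Fin 24 → ℤ} (hx : x ∈ Λ) (hev : ∀ i, (2 : ℤ) ∣ x i) (hs : sq x = 32) (hne : odd4 x ≠ ∅) :
    (odd4 x).card = 8 ∧ (∀ i ∈ odd4 x, x i = 2 ∨ x i = -2) ∧ ∀ i, i ∉ odd4 x → x i = 0 := by
  have h1 := (h.code_card (odd4_code hx hev)).2 hne
  choose z hz using hev
  have h2 : ∑ i, z i ^ 2 = 8 := by
    unfold sq at hs
    rw [sum_congr rfl (fun i _ => by rw [hz i]; ring : ∀ i ∈ univ, x i ^ 2 = 4 * z i ^ 2), ← mul_sum] at hs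
    omega
  have h3 : ∀ i, 0 ≤ z i ^ 2 - (if i ∈ odd4 x then (1 : ℤ) else 0) := by
    intro i
    split_ifs with hi
    · rw [mem_odd4] at hi
      have : z i ≠ 0 := by
        intro h0
        apply hi
        rw [hz, h0]; norm_num
      have : 0 < z i ^ 2 := by positivity
      omega
    · have := sq_nonneg (z i)
      omega
  have h4 : ∑ i, (z i ^ 2 - (if i ∈ odd4 x then (1 : ℤ) else 0)) = 8 - (odd4 x).card := by
    rw [sum_sub_distrib, h2, sum_ite_mem, univ_inter, sum_const, nsmul_eq_mul, mul_one]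
  have h5 : (0 : ℤ) ≤ ∑ i, (z i ^ 2 - (if i ∈ odd4 x then (1 : ℤ) else 0)) := sum_nonneg (fun i _ => h3 i)
  have h6 : (odd4 x).card = 8 := by omega
  have h7 : ∑ i, (z i ^ 2 - (if i ∈ odd4 x then (1 : ℤ) else 0)) = 0 := by rw [h4, h6]; norm_num
  rw [sum_eq_zero_iff_of_nonneg (fun i _ => h3 i)] at h7
  refine ⟨h6, ?_, ?_⟩
  · intro i hi
    have h8 := h7 i (mem_univ i)
    rw [if_pos hi] at h8
    obtain ⟨s, hs'⟩ := sq_one (show z i ^ 2 = 1 by omega)
    cases s
    · right; rw [hz, hs']; rfl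
    · left; rw [hz, hs']; rfl
  · intro i hi
    have h8 := h7 i (mem_univ i)
    rw [if_neg hi, sub_zero] at h8
    rw [hz, pow_eq_zero_iff (by norm_num) |>.1 h8, mul_zero]

/-- counting -/
theorem counting {N : Finset (Fin 24 → ℤ)} (hN : ∀ x, x ∈ N ↔ x ∈ Λ ∧ sq x = 32) (hc : N.card = 196560) :
    (code Λ).card = 4096 ∧ ∃ x ∈ Λ, sq x = 32 ∧ ∀ i, ¬ (2 : ℤ) ∣ x i := by
  classical
  set Na := N.filter fun x => ∀ i, (4 : ℤ) ∣ x i with hNa
  set Nb := N.filter fun x => (∀ i, (2 : ℤ) ∣ x i) ∧ odd4 x ≠ ∅ with hNb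
  set Nc := N.filter fun x => ∀ i, ¬ (2 : ℤ) ∣ x i with hNc
  have hcov : N ⊆ Na ∪ Nb ∪ Nc := by
    intro x hx
    rw [mem_union, mem_union, hNa, hNb, hNc, mem_filter, mem_filter, mem_filter]
    have hxL := (hN x).1 hx
    have hp := h.par hxL.1
    by_cases h0 : (2 : ℤ) ∣ x 0
    · have hall : ∀ i, (2 : ℤ) ∣ x i := by
        intro i; have := hp i 0; omega
      by_cases hne : odd4 x = ∅
      · left; left
        refine ⟨hx, fun i => ?_⟩
        by_contra hn
        have : i ∈ odd4 x := mem_odd4.2 hn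
        rw [hne] at this
        exact absurd this (notMem_empty i)
      · left; right; exact ⟨hx, hall, hne⟩
    · right
      refine ⟨hx, fun i => ?_⟩
      have := hp i 0; omega
  have ka : Na.card ≤ 1104 := by
    rw [← card_D4]
    refine (card_le_card (t := D4.image f4) ?_).trans card_image_le
    intro x hx
    rw [hNa, mem_filter] at hx
    exact shape4 hx.2 ((hN x).1 hx.1).2
  -- octads
  set C8 := (code Λ).filter fun S => S.card = 8 with hC8
  have k8 : C8.card ≤ 759 := by
    apply packing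
    · intro S hS; exact (mem_filter.1 hS).2
    · intro S hS T hT hne
      rw [hC8, mem_filter] at hS hT
      have h1 := (h.code_card (code_add S hS.1 T hT.1)).2 (fun h0 => hne (symmDiff_eq_bot.1 h0))
      have h2 := card_symm S T
      omega
  have kb : Nb.card ≤ 128 * C8.card := by
    have h1 : ∀ x ∈ Nb, x ∈ Λ ∧ (∀ i, (2 : ℤ) ∣ x i) ∧ sq x = 32 ∧ odd4 x ≠ ∅ := by
      intro x hx
      rw [hNb, mem_filter] at hx
      exact ⟨((hN x).1 hx.1).1, hx.2.1, ((hN x).1 hx.1).2, hx.2.2⟩
    have h2 : Nb.card ≤ 128 * (Nb.image odd4).card := by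
      apply card_le_mul_card_image Nb 128
      intro S hS
      rw [mem_image] at hS
      obtain ⟨x0, hx0, hx0S⟩ := hS
      obtain ⟨a1, a2, a3, a4⟩ := h1 x0 hx0
      obtain ⟨b1, b2, b3⟩ := h.shape2 a1 a2 a3 a4
      rw [hx0S] at b1 b2 b3
      refine le_trans ?_ (half_par b1 ((univ.filter fun i => x0 i = 2).card % 2))
      apply card_le_card_of_injOn (fun x => univ.filter fun i => x i = 2)
      · intro x hx
        simp only [mem_coe, mem_filter] at hx
        obtain ⟨c1, c2, c3, c4⟩ := h1 x hx.1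
        obtain ⟨d1, d2, d3⟩ := h.shape2 c1 c2 c3 c4
        rw [hx.2] at d1 d2 d3
        simp only [coe_filter, Set.mem_ofPred_eq, mem_powerset]
        constructor
        · intro i hi
          rw [mem_filter] at hi
          by_contra hn
          have := d3 i hn
          omega
        · -- parity
          have e1 : ∀ (w : Fin 24 → ℤ), (∀ i ∈ S, w i = 2 ∨ w i = -2) → (∀ i, i ∉ S → w i = 0) →
              ∑ i, w i = 4 * ((univ.filter fun i => w i = 2).card : ℤ) - 2 * S.card := by
            intro w hw1 hw2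
            have : ∀ i, w i = 4 * (if w i = 2 then 1 else 0) - 2 * (if i ∈ S then 1 else 0) := by
              intro i
              by_cases hi : i ∈ S
              · rcases hw1 i hi with h5 | h5 <;> rw [h5] <;> simp [hi]
              · rw [hw2 i hi]; simp [hi]
            rw [sum_congr rfl (fun i _ => this i), sum_sub_distrib, ← mul_sum, ← mul_sum, sum_boole, sum_ite_mem, univ_inter, sum_const, nsmul_eq_mul, mul_one]
          have e2 := e1 x d2 d3
          have e3 := e1 x0 b2 b3
          have e4 : ∀ i, (4 : ℤ) ∣ x i - x0 i := by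
            intro i
            by_cases hi : i ∈ S
            · rcases d2 i hi with h5 | h5 <;> rcases b2 i hi with h6 | h6 <;> rw [h5, h6] <;> norm_num
            · rw [d3 i hi, b3 i hi]; norm_num
          choose y hy using e4
          have e5 : (fun i => 4 * y i) ∈ Λ := by
            have := Λ.sub_mem c1 a1
            have e6 : x - x0 = fun i => 4 * y i := by
              funext i; rw [Pi.sub_apply, hy]
            rwa [e6] at this
          have e7 := h.four' e5
          have e8 : ∑ i, x i - ∑ i, x0 i = 4 * ∑ i, y i := by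
            rw [← sum_sub_distrib, mul_sum]
            exact sum_congr rfl (fun i _ => hy i)
          omega
      · intro x hx x' hx' he
        simp only [mem_coe, mem_filter] at hx hx'
        obtain ⟨c1, c2, c3, c4⟩ := h1 x hx.1
        obtain ⟨d1, d2, d3⟩ := h.shape2 c1 c2 c3 c4
        rw [hx.2] at d1 d2 d3
        obtain ⟨c1', c2', c3', c4'⟩ := h1 x' hx'.1
        obtain ⟨d1', d2', d3'⟩ := h.shape2 c1' c2' c3' c4'
        rw [hx'.2] at d1' d2' d3'
        funext i
        by_cases hi : i ∈ S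
        · have h5 : x i = 2 ↔ x' i = 2 := by
            have := Finset.ext_iff.1 he i
            simpa only [mem_filter, mem_univ, true_and] using this
          rcases d2 i hi with h6 | h6 <;> rcases d2' i hi with h7 | h7
          · rw [h6, h7]
          · exfalso; have := h5.1 h6; omega
          · exfalso; have := h5.2 h7; omega
          · rw [h6, h7]
        · rw [d3 i hi, d3' i hi]
    refine h2.trans (Nat.mul_le_mul_left 128 (card_le_card ?_))
    intro S hS
    rw [mem_image] at hS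
    obtain ⟨x, hx, rfl⟩ := hS
    obtain ⟨a1, a2, a3, a4⟩ := h1 x hx
    rw [hC8, mem_filter]
    exact ⟨odd4_code a1 a2, (h.shape2 a1 a2 a3 a4).1⟩
  have kc : Nc.card ≤ 24 * (code Λ).card := by
    rcases Nc.eq_empty_or_nonempty with h0 | ⟨x0, hx0⟩
    · rw [h0, card_empty]; exact Nat.zero_le _
    · have h1 : ∀ x ∈ Nc, x ∈ Λ ∧ (∀ i, ¬ (2 : ℤ) ∣ x i) ∧ sq x = 32 := by
        intro x hx
        rw [hNc, mem_filter] at hx
        exact ⟨((hN x).1 hx.1).1, hx.2, ((hN x).1 hx.1).2⟩
      have h2 : ∀ x : Fin 24 → ℤ, ∃ j : Fin 24, x ∈ Nc → x j ^ 2 = 9 ∧ ∀ i, i ≠ j → x i ^ 2 = 1 := by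
        intro x
        by_cases hx : x ∈ Nc
        · obtain ⟨j, hj⟩ := odd_shape (h1 x hx).2.1 (h1 x hx).2.2
          exact ⟨j, fun _ => hj⟩
        · exact ⟨0, fun h => absurd h hx⟩
      choose J hJ using h2
      have h3 : (24 * (code Λ).card) = ((univ : Finset (Fin 24)) ×ˢ code Λ).card := by
        rw [card_product, card_univ, Fintype.card_fin]
      rw [h3]
      apply card_le_card_of_injOn (fun x => (J x, odd4 (x - x0)))
      · intro x hx
        simp only [coe_product, Set.mem_prod, mem_coe, mem_univ, true_and]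
        apply odd4_code (Λ.sub_mem (h1 x hx).1 (h1 x0 hx0).1)
        intro i
        rw [Pi.sub_apply]
        have e1 := (h1 x hx).2.1 i
        have e2 := (h1 x0 hx0).2.1 i
        omega
      · intro x hx x' hx' he
        simp only [Prod.mk.injEq] at he
        obtain ⟨he1, he2⟩ := he
        have a1 := hJ x hx
        have a2 := hJ x' hx'
        funext i
        have h5 : (4 : ℤ) ∣ (x i - x0 i) ↔ (4 : ℤ) ∣ (x' i - x0 i) := by
          have := Finset.ext_iff.1 he2 i
          rw [mem_odd4, mem_odd4, Pi.sub_apply, Pi.sub_apply, not_iff_not] at this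
          exact this
        have e1 := (h1 x hx).2.1 i
        have e2 := (h1 x' hx').2.1 i
        have e3 := (h1 x0 hx0).2.1 i
        have h6 : (4 : ℤ) ∣ x i - x' i := by omega
        by_cases hi : i = J x
        · have b1 := a1.1
          have b2 := a2.1
          rw [← he1, ← hi] at b2
          rw [← hi] at b1
          have c1 : x i = 3 ∨ x i = -3 := by
            have : (x i - 3) * (x i + 3) = 0 := by nlinarith
            rcases mul_eq_zero.1 this with h | h
            · left; omega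
            · right; omega
          have c2 : x' i = 3 ∨ x' i = -3 := by
            have : (x' i - 3) * (x' i + 3) = 0 := by nlinarith
            rcases mul_eq_zero.1 this with h | h
            · left; omega
            · right; omega
          omega
        · have b1 := a1.2 i hi
          have b2 := a2.2 i (by rw [← he1]; exact hi)
          have c1 : x i = 1 ∨ x i = -1 := by
            have : (x i - 1) * (x i + 1) = 0 := by nlinarith
            rcases mul_eq_zero.1 this with h | h
            · left; omega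
            · right; omega
          have c2 : x' i = 1 ∨ x' i = -1 := by
            have : (x' i - 1) * (x' i + 1) = 0 := by nlinarith
            rcases mul_eq_zero.1 this with h | h
            · left; omega
            · right; omega
          omega
  have htot : N.card ≤ Na.card + Nb.card + Nc.card :=
    (card_le_card hcov).trans ((card_union_le _ _).trans (Nat.add_le_add_right (card_union_le _ _) _))
  obtain ⟨k, hk, hpow⟩ := h.code_pow
  constructor
  · have h1 : 4096 ≤ (code Λ).card := by omega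
    rw [hpow] at h1 ⊢
    have h2 : (4096 : ℕ) = 2 ^ 12 := by norm_num
    rw [h2] at h1 ⊢
    have h3 : 2 ^ k ≤ 2 ^ 12 := Nat.pow_le_pow_right (by norm_num) hk
    omega
  · obtain ⟨x, hx⟩ : Nc.Nonempty := by
      rw [nonempty_iff_ne_empty]
      intro h0
      rw [h0, card_empty] at htot
      omega
    rw [hNc, mem_filter] at hx
    exact ⟨x, ((hN x).1 hx.1).1, ((hN x).1 hx.1).2, hx.2⟩

theorem code_fam {N : Finset (Fin 24 → ℤ)} (hN : ∀ x, x ∈ N ↔ x ∈ Λ ∧ sq x = 32) (hc : N.card = 196560) : Fam (code Λ) where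
  pts := Fintype.card_fin 24
  zero := code_zero
  add := code_add
  card := (h.counting hN hc).1
  four := fun S hS => (h.code_card hS).1
  ne4 := fun S hS h4 => by
    have := (h.code_card hS).2 (by rintro rfl; rw [card_empty] at h4; omega)
    omega

end Lam

end Cfsg.Agent.Lch
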