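import Mathlib

/-!
# Frames of norm 8 vectors in a rootless even lattice of rank 24
-/

set_option autoImplicit false

namespace Cfsg.Agent.Lch

open Matrix Finset

variable (B : Matrix (Fin 24) (Fin 24) ℤ)

/-- the form -/
def bf (x y : Fin 24 → ℤ) : ℤ := x ⬝ᵥ (B *ᵥ y)

theorem bf_add_left (x y z : Fin 24 → ℤ) : bf B (x + y) z = bf B x z + bf B y z := add_dotProduct _ _ _
theorem bf_sub_left (x y z : Fin 24 → ℤ) : bf B (x - y) z = bf B x z - bf B y z := sub_dotProduct _ _ _
theorem bf_add_right (x y z : Fin 24 → ℤ) : bf B x (y + z) = bf B x y + bf B x z := by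
  unfold bf; rw [mulVec_add, dotProduct_add]
theorem bf_sub_right (x y z : Fin 24 → ℤ) : bf B x (y - z) = bf B x y - bf B x z := by
  unfold bf; rw [mulVec_sub, dotProduct_sub]
theorem bf_smul_left (a : ℤ) (x y : Fin 24 → ℤ) : bf B (a • x) y = a * bf B x y := by
  unfold bf; rw [smul_dotProduct]; rfl
theorem bf_smul_right (a : ℤ) (x y : Fin 24 → ℤ) : bf B x (a • y) = a * bf B x y := by
  unfold bf; rw [mulVec_smul, dotProduct_smul]; rfl
theorem bf_neg_left (x y : Fin 24 → ℤ) : bf B (-x) y = -bf B x y := neg_dotProduct _ _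
theorem bf_neg_right (x y : Fin 24 → ℤ) : bf B x (-y) = -bf B x y := by
  unfold bf; rw [mulVec_neg, dotProduct_neg]
theorem bf_zero_left (y : Fin 24 → ℤ) : bf B 0 y = 0 := zero_dotProduct _
theorem bf_sum_left {ι : Type*} (s : Finset ι) (f : ι → (Fin 24 → ℤ)) (y : Fin 24 → ℤ) : bf B (∑ i ∈ s, f i) y = ∑ i ∈ s, bf B (f i) y := by
  unfold bf; rw [sum_dotProduct]

/-- hypotheses -/
structure Good : Prop where
  symm : B.IsSymm
  pos : ∀ x : Fin 24 → ℤ, x ≠ 0 → 0 < bf B x x
  even : ∀ x : Fin 24 → ℤ, (2 : ℤ) ∣ bf B x x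
  no2 : ∀ x : Fin 24 → ℤ, bf B x x ≠ 2

variable {B}

namespace Good
variable (h : Good B)
include h

theorem comm (x y : Fin 24 → ℤ) : bf B x y = bf B y x := by
  unfold bf
  rw [dotProduct_comm, ← vecMul_transpose, h.symm.eq, dotProduct_mulVec]

theorem ge4 {x : Fin 24 → ℤ} (hx : x ≠ 0) : 4 ≤ bf B x x := by
  have h1 := h.pos x hx
  have h2 := h.even x
  have h3 := h.no2 x
  omega

theorem short {x y z : Fin 24 → ℤ} (hx : bf B x x ≤ 8) (hy : bf B y y ≤ 8) (hz : x - y = (2 : ℤ) • z) (h1 : x ≠ y) (h2 : x ≠ -y) :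
    bf B x x = 8 ∧ bf B y y = 8 ∧ bf B x y = 0 := by
  have hz0 : z ≠ 0 := by
    rintro rfl
    rw [smul_zero, sub_eq_zero] at hz
    exact h1 hz
  have hz' : x + y = (2 : ℤ) • (z + y) := by
    rw [smul_add, ← hz, two_smul]; abel
  have hz0' : z + y ≠ 0 := by
    intro h0
    rw [h0, smul_zero] at hz'
    exact h2 (eq_neg_of_add_eq_zero_left hz')
  have e1 : bf B (x - y) (x - y) = 4 * bf B z z := by rw [hz, bf_smul_left, bf_smul_right]; ring
  have e2 : bf B (x + y) (x + y) = 4 * bf B (z + y) (z + y) := by rw [hz', bf_smul_left, bf_smul_right]; ring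
  have e3 : bf B (x - y) (x - y) = bf B x x + bf B y y - 2 * bf B x y := by
    rw [bf_sub_left, bf_sub_right, bf_sub_right, h.comm y x]; ring
  have e4 : bf B (x + y) (x + y) = bf B x x + bf B y y + 2 * bf B x y := by
    rw [bf_add_left, bf_add_right, bf_add_right, h.comm y x]; ring
  have g1 := h.ge4 hz0
  have g2 := h.ge4 hz0'
  omega

/-- orthogonal families have at most 24 members -/
theorem orth_card {ι : Type*} [Fintype ι] (v : ι → (Fin 24 → ℤ)) (hv : ∀ i, v i ≠ 0) (ho : ∀ i j, i ≠ j → bf B (v i) (v j) = 0) :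
    Fintype.card ι ≤ 24 := by
  classical
  have hli : LinearIndependent ℤ v := by
    rw [Fintype.linearIndependent_iff]
    intro g hg i
    have h1 : bf B (∑ j, g j • v j) (v i) = g i * bf B (v i) (v i) := by
      rw [bf_sum_left]
      rw [sum_eq_single i]
      · rw [bf_smul_left]
      · intro j _ hj
        rw [bf_smul_left, ho j i hj, mul_zero]
      · intro hi; exact absurd (mem_univ i) hi
    rw [hg, bf_zero_left] at h1
    have h2 := h.pos (v i) (hv i)
    rcases mul_eq_zero.1 h1.symm with h3 | h3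
    · exact h3
    · omega
  have := hli.fintype_card_le_finrank
  simpa using this

end Good

/-- canonical representative of a pair of opposite vectors -/
noncomputable def rep (x : Fin 24 → ℤ) : Fin 24 → ℤ := by
  classical exact (show ({x, -x} : Finset (Fin 24 → ℤ)).Nonempty from ⟨x, by simp⟩).choose

theorem rep_mem (x : Fin 24 → ℤ) : rep x = x ∨ rep x = -x := by
  classical
  have : rep x ∈ ({x, -x} : Finset (Fin 24 → ℤ)) := (show ({x, -x} : Finset (Fin 24 → ℤ)).Nonempty from ⟨x, by simp⟩).choose_spec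
  simpa using this

theorem rep_neg (x : Fin 24 → ℤ) : rep (-x) = rep x := by
  classical
  unfold rep
  have : ({-x, - -x} : Finset (Fin 24 → ℤ)) = {x, -x} := by rw [neg_neg, pair_comm]
  simp only [this]

theorem half (F : Finset (Fin 24 → ℤ)) : F.card ≤ 2 * (F.image rep).card := by
  classical
  apply card_le_mul_card_image F 2
  intro a _
  have : (F.filter fun x => rep x = a) ⊆ {a, -a} := by
    intro x hx
    rw [mem_filter] at hx
    rw [mem_insert, mem_singleton]
    rcases rep_mem x with h | h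
    · left; rw [← h, hx.2]
    · right; rw [← hx.2, h, neg_neg]
  exact (card_le_card this).trans card_le_two

/-- reduction modulo 2 -/
def red (x : Fin 24 → ℤ) : Fin 24 → ZMod 2 := fun i => (x i : ZMod 2)

theorem red_eq {x y : Fin 24 → ℤ} (h : red x = red y) : ∃ z : Fin 24 → ℤ, x - y = (2 : ℤ) • z := by
  have h1 : ∀ i, ∃ k : ℤ, x i - y i = 2 * k := by
    intro i
    have h2 : ((x i : ℤ) : ZMod 2) = ((y i : ℤ) : ZMod 2) := congrFun h i
    rw [ZMod.intCast_eq_intCast_iff_dvd_sub] at h2
    obtain ⟨k, hk⟩ := h2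
    refine ⟨-k, ?_⟩
    push_cast at hk
    linarith
  choose z hz using h1
  refine ⟨z, ?_⟩
  funext i
  rw [Pi.sub_apply, hz i]; rfl

namespace Good
variable (h : Good B)
include h

/-- counting classes modulo 2 -/
theorem exists_class (S4 S6 S8 : Finset (Fin 24 → ℤ)) (h4 : ∀ x ∈ S4, bf B x x = 4) (h6 : ∀ x ∈ S6, bf B x x = 6)
    (h8 : ∀ x ∈ S8, bf B x x = 8) (c4 : S4.card = 196560) (c6 : S6.card = 16773120) (c8 : S8.card = 398034000) :
    ∃ F : Finset (Fin 24 → ℤ), F.card ≥ 48 ∧ (∀ x ∈ F, bf B x x = 8) ∧ ∀ x ∈ F, ∀ y ∈ F, red x = red y := by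
  classical
  by_contra hcon
  push Not at hcon
  have k4 : S4.card ≤ 2 * (S4.image red).card := by
    apply card_le_mul_card_image S4 2
    intro c hc
    rw [mem_image] at hc
    obtain ⟨a, ha, rfl⟩ := hc
    have : (S4.filter fun x => red x = red a) ⊆ {a, -a} := by
      intro x hx
      rw [mem_filter] at hx
      rw [mem_insert, mem_singleton]
      by_contra hn
      rw [not_or] at hn
      obtain ⟨z, hz⟩ := red_eq hx.2
      have h1 := h.short (by rw [h4 x hx.1]; norm_num) (by rw [h4 a ha]; norm_num) hz hn.1 hn.2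
      have h2 := h4 x hx.1
      omega
    exact (card_le_card this).trans card_le_two
  have k6 : S6.card ≤ 2 * (S6.image red).card := by
    apply card_le_mul_card_image S6 2
    intro c hc
    rw [mem_image] at hc
    obtain ⟨a, ha, rfl⟩ := hc
    have : (S6.filter fun x => red x = red a) ⊆ {a, -a} := by
      intro x hx
      rw [mem_filter] at hx
      rw [mem_insert, mem_singleton]
      by_contra hn
      rw [not_or] at hn
      obtain ⟨z, hz⟩ := red_eq hx.2
      have h1 := h.short (by rw [h6 x hx.1]; norm_num) (by rw [h6 a ha]; norm_num) hz hn.1 hn.2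
      have h2 := h6 x hx.1
      omega
    exact (card_le_card this).trans card_le_two
  have k8 : S8.card ≤ 47 * (S8.image red).card := by
    apply card_le_mul_card_image S8 47
    intro c _
    by_contra hn
    push Not at hn
    obtain ⟨x, hx, y, hy, hxy⟩ := hcon (S8.filter fun x => red x = c) (by omega) (fun x hx => h8 x (mem_filter.1 hx).1)
    exact hxy ((mem_filter.1 hx).2.trans (mem_filter.1 hy).2.symm)
  -- different norms give different classes
  have hne : ∀ x y, bf B x x ≤ 8 → bf B y y ≤ 8 → bf B x x ≠ bf B y y → red x ≠ red y := by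
    intro x y hx hy hxy he
    obtain ⟨z, hz⟩ := red_eq he
    have h1 : x ≠ y := fun e => hxy (by rw [e])
    have h2 : x ≠ -y := fun e => hxy (by rw [e, bf_neg_left, bf_neg_right, neg_neg])
    have := h.short hx hy hz h1 h2
    omega
  have hz : bf B 0 0 = 0 := bf_zero_left B 0
  have d1 : Disjoint ({red 0} : Finset (Fin 24 → ZMod 2)) (S4.image red) := by
    rw [disjoint_singleton_left, mem_image]
    rintro ⟨x, hx, he⟩
    exact hne x 0 (by rw [h4 x hx]; norm_num) (by rw [hz]; norm_num) (by rw [h4 x hx, hz]; norm_num) he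
  have d2 : Disjoint ({red 0} ∪ S4.image red : Finset (Fin 24 → ZMod 2)) (S6.image red) := by
    rw [disjoint_left]
    intro c hc hc'
    rw [mem_image] at hc'
    obtain ⟨y, hy, rfl⟩ := hc'
    rw [mem_union, mem_singleton, mem_image] at hc
    rcases hc with hc | ⟨x, hx, he⟩
    · exact hne y 0 (by rw [h6 y hy]; norm_num) (by rw [hz]; norm_num) (by rw [h6 y hy, hz]; norm_num) hc
    · exact hne x y (by rw [h4 x hx]; norm_num) (by rw [h6 y hy]; norm_num) (by rw [h4 x hx, h6 y hy]; norm_num) he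
  have d3 : Disjoint ({red 0} ∪ S4.image red ∪ S6.image red : Finset (Fin 24 → ZMod 2)) (S8.image red) := by
    rw [disjoint_left]
    intro c hc hc'
    rw [mem_image] at hc'
    obtain ⟨y, hy, rfl⟩ := hc'
    rw [mem_union, mem_union, mem_singleton, mem_image, mem_image] at hc
    rcases hc with (hc | ⟨x, hx, he⟩) | ⟨x, hx, he⟩
    · exact hne y 0 (by rw [h8 y hy]) (by rw [hz]; norm_num) (by rw [h8 y hy, hz]; norm_num) hc
    · exact hne x y (by rw [h4 x hx]; norm_num) (by rw [h8 y hy]) (by rw [h4 x hx, h8 y hy]; norm_num) he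
    · exact hne x y (by rw [h6 x hx]; norm_num) (by rw [h8 y hy]) (by rw [h6 x hx, h8 y hy]; norm_num) he
  have hall := card_le_univ ({red 0} ∪ S4.image red ∪ S6.image red ∪ S8.image red : Finset (Fin 24 → ZMod 2))
  rw [card_union_of_disjoint d3, card_union_of_disjoint d2, card_union_of_disjoint d1, card_singleton] at hall
  have hcard : Fintype.card (Fin 24 → ZMod 2) = 16777216 := by
    rw [Fintype.card_fun, ZMod.card, Fintype.card_fin]; norm_num
  rw [hcard] at hall
  omega

/-- the frame -/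
theorem exists_frame (S4 S6 S8 : Finset (Fin 24 → ℤ)) (h4 : ∀ x ∈ S4, bf B x x = 4) (h6 : ∀ x ∈ S6, bf B x x = 6)
    (h8 : ∀ x ∈ S8, bf B x x = 8) (c4 : S4.card = 196560) (c6 : S6.card = 16773120) (c8 : S8.card = 398034000) :
    ∃ e : Fin 24 → (Fin 24 → ℤ), (∀ i, bf B (e i) (e i) = 8) ∧ (∀ i j, i ≠ j → bf B (e i) (e j) = 0) ∧
      ∀ i j, red (e i) = red (e j) := by
  classical
  obtain ⟨F, hF, hF8, hFr⟩ := h.exists_class S4 S6 S8 h4 h6 h8 c4 c6 c8
  have h1 := half F
  obtain ⟨R, hRs, hRc⟩ := exists_subset_card_eq (show 24 ≤ (F.image rep).card by omega)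
  have hred_neg : ∀ x, red (-x) = red x := by
    intro x
    funext i
    show (((-x i : ℤ)) : ZMod 2) = ((x i : ℤ) : ZMod 2)
    push_cast
    have : ∀ a : ZMod 2, -a = a := by decide
    exact this _
  have hR : ∀ y ∈ R, bf B y y = 8 ∧ rep y = y ∧ ∃ x ∈ F, red y = red x := by
    intro y hy
    have := hRs hy
    rw [mem_image] at this
    obtain ⟨x, hx, rfl⟩ := this
    rcases rep_mem x with h2 | h2
    · rw [h2]; exact ⟨hF8 x hx, h2, x, hx, rfl⟩
    · rw [h2]; exact ⟨by rw [bf_neg_left, bf_neg_right, neg_neg, hF8 x hx], by rw [rep_neg, h2], x, hx, hred_neg x⟩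
  let E := (equivFinOfCardEq hRc).symm
  refine ⟨fun i => (E i).1, fun i => (hR _ (E i).2).1, ?_, ?_⟩
  · intro i j hij
    have hne : (E i).1 ≠ (E j).1 := fun h' => hij (E.injective (Subtype.ext h'))
    obtain ⟨a1, a2, x, hx, a3⟩ := hR _ (E i).2
    obtain ⟨b1, b2, y, hy, b3⟩ := hR _ (E j).2
    obtain ⟨z, hz⟩ := red_eq (a3.trans ((hFr x hx y hy).trans b3.symm))
    have hne' : (E i).1 ≠ -(E j).1 := by
      intro h'
      apply hne
      rw [← a2, h', rep_neg, b2]
    exact (h.short a1.le b1.le hz hne hne').2.2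
  · intro i j
    obtain ⟨a1, a2, x, hx, a3⟩ := hR _ (E i).2
    obtain ⟨b1, b2, y, hy, b3⟩ := hR _ (E j).2
    exact a3.trans ((hFr x hx y hy).trans b3.symm)

/-- coordinates with respect to a frame -/
theorem frame_expand {e : Fin 24 → (Fin 24 → ℤ)} (e8 : ∀ i, bf B (e i) (e i) = 8) (eo : ∀ i j, i ≠ j → bf B (e i) (e j) = 0)
    (x y : Fin 24 → ℤ) : ∑ i, bf B x (e i) * bf B y (e i) = 8 * bf B x y := by
  classical
  have hzero : ∀ w : Fin 24 → ℤ, (∀ i, bf B w (e i) = 0) → w = 0 := by
    intro w hw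
    by_contra hne
    have h1 := h.orth_card (fun o : Option (Fin 24) => o.elim w e) (by
      intro o
      rcases o with _ | i
      · exact hne
      · show e i ≠ 0
        intro h0
        have := e8 i
        rw [h0, bf_zero_left] at this
        omega) (by
      intro i j hij
      rcases i with _ | i <;> rcases j with _ | j
      · exact absurd rfl hij
      · exact hw j
      · show bf B (e i) w = 0
        rw [h.comm]; exact hw i
      · exact eo i j (fun h' => hij (by rw [h'])))
    rw [Fintype.card_option, Fintype.card_fin] at h1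
    omega
  have h2 : (8 : ℤ) • x - ∑ i, bf B x (e i) • e i = 0 := by
    apply hzero
    intro j
    rw [bf_sub_left, bf_smul_left, bf_sum_left, sum_eq_single j]
    · rw [bf_smul_left, e8]; ring
    · intro i _ hij
      rw [bf_smul_left, eo i j hij, mul_zero]
    · intro hj; exact absurd (mem_univ j) hj
  rw [sub_eq_zero] at h2
  have h3 := congrArg (fun w => bf B w y) h2
  simp only [bf_smul_left, bf_sum_left] at h3
  rw [h3]
  apply sum_congr rfl
  intro i _
  rw [h.comm y (e i)]

end Good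

end Cfsg.Agent.Lch
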