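import Cfsg.Agent.Lch.Count
import Cfsg.Agent.Lch.Frame
import Cfsg.Agent.Stn.CodeFam
import Cfsg.Agent.Leech.Base

/-!
# Uniqueness of the Leech lattice
-/

set_option autoImplicit false

namespace Cfsg.Agent.Lch

open Finset Cfsg.Agent.Stn Cfsg.Agent.Leech Cfsg.Agent.Lch.Lam

section transport
variable {Λ : AddSubgroup (Fin 24 → ℤ)} (h : Lam Λ)
  (σ : Fin 24 ≃ GolayPt) (s : Fin 24 → ℤ)

/-- signed relabelling -/
def psi (x : Fin 24 → ℤ) : GolayPt → ℤ := fun q => s (σ.symm q) * x (σ.symm q)

theorem psi_apply (x : Fin 24 → ℤ) (i : Fin 24) : psi σ s x (σ i) = s i * x i := by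
  unfold psi; rw [Equiv.symm_apply_apply]

theorem psi_add (x y : Fin 24 → ℤ) : psi σ s (x + y) = psi σ s x + psi σ s y := by
  funext q; simp only [psi, Pi.add_apply]; ring

theorem psi_sub (x y : Fin 24 → ℤ) : psi σ s (x - y) = psi σ s x - psi σ s y := by
  funext q; simp only [psi, Pi.sub_apply]; ring

theorem sum_psi (x : Fin 24 → ℤ) : ∑ q, psi σ s x q = ∑ i, s i * x i := by
  rw [← Equiv.sum_comp σ]
  exact sum_congr rfl (fun i _ => psi_apply σ s x i)

theorem sqNorm_psi (hs : ∀ i, s i = 1 ∨ s i = -1) (x : Fin 24 → ℤ) : sqNorm (psi σ s x) = sq x := by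
  unfold sqNorm sq
  rw [← Equiv.sum_comp σ]
  apply sum_congr rfl
  intro i _
  rw [psi_apply]
  rcases hs i with h | h <;> rw [h] <;> ring

theorem lift_ind (S : Finset GolayPt) (q : GolayPt) : lift (ind S) q = if q ∈ S then 1 else 0 := by
  by_cases hq : q ∈ S
  · rw [if_pos hq, lift_eq_one_iff, ind_apply, if_pos hq]; exact one_ne_zero
  · rw [if_neg hq, lift_eq_zero_iff, ind_apply, if_neg hq]

include h

theorem psi_even (hs : ∀ i, s i = 1 ∨ s i = -1) (hσ : ∀ x : Finset (Fin 24), x ∈ code Λ ↔ x.map σ.toEmbedding ∈ fam golayCode)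
    {x0 : Fin 24 → ℤ} (hx0 : x0 ∈ Λ) {j : Fin 24} (h0 : ∀ i, i ≠ j → x0 i = s i) (h0' : x0 j = -3 * s j)
    {x : Fin 24 → ℤ} (hev : ∀ i, (2 : ℤ) ∣ x i) : x ∈ Λ ↔ IsEvenVec (psi σ s x) := by
  have key : ∀ z ∈ Λ, (∀ i, (2 : ℤ) ∣ z i) → (8 : ℤ) ∣ ∑ i, s i * z i := by
    intro z hz hzev
    have h1 := h.dot z hz x0 hx0
    have h2 : ∑ i, s i * z i = dt z x0 + 4 * (s j * z j) := by
      unfold dt
      rw [← add_sum_erase univ (fun i => s i * z i) (mem_univ j), ← add_sum_erase univ (fun i => z i * x0 i) (mem_univ j)]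
      have h3 : ∑ i ∈ univ.erase j, s i * z i = ∑ i ∈ univ.erase j, z i * x0 i := by
        apply sum_congr rfl
        intro i hi
        rw [h0 i (mem_erase.1 hi).1]; ring
      rw [h3, h0']; ring
    obtain ⟨k, hk⟩ := hzev j
    obtain ⟨l, hl⟩ := h1
    rw [h2, hk, hl]
    exact ⟨l + s j * k, by ring⟩
  constructor
  · intro hx
    refine ⟨ind ((odd4 x).map σ.toEmbedding), mem_fam.1 ((hσ _).1 (odd4_code hx hev)), ?_, ?_⟩
    · intro q
      obtain ⟨i, rfl⟩ := σ.surjective q
      rw [psi_apply, lift_ind]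
      have h1 := hev i
      have h2 : σ i ∈ (odd4 x).map σ.toEmbedding ↔ i ∈ odd4 x := mem_map' σ.toEmbedding
      simp only [h2, mem_odd4]
      split_ifs with h3
      · rcases hs i with h4 | h4 <;> rw [h4] <;> unfold Int.ModEq <;> omega
      · rcases hs i with h4 | h4 <;> rw [h4] <;> unfold Int.ModEq <;> omega
    · rw [sum_psi]
      have := key x hx hev
      unfold Int.ModEq; omega
  · rintro ⟨c, hc, h1, h2⟩
    -- representative of the word
    have h3 : (support₂ c).map σ.symm.toEmbedding ∈ code Λ := by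
      rw [hσ, map_map]
      have : σ.symm.toEmbedding.trans σ.toEmbedding = Function.Embedding.refl _ := by
        ext q; simp
      rw [this, map_refl, mem_fam, ind_support]
      exact hc
    rw [mem_code] at h3
    obtain ⟨z, hz, hz'⟩ := h3
    have h4 : ∀ i, (4 : ℤ) ∣ x i - z i := by
      intro i
      have e1 := hz' i
      have e2 := h1 (σ i)
      rw [psi_apply] at e2
      have e3 : i ∈ (support₂ c).map σ.symm.toEmbedding ↔ c (σ i) ≠ 0 := by
        rw [mem_map]
        constructor
        · rintro ⟨q, hq, rfl⟩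
          simpa [support₂] using hq
        · intro hq
          exact ⟨σ i, by simpa [support₂] using hq, by simp⟩
      have e4 : lift c (σ i) = 1 ↔ c (σ i) ≠ 0 := lift_eq_one_iff c (σ i)
      have e5 := hev i
      unfold ch at e1
      rcases lift_zero_or_one c (σ i) with e6 | e6
      · rw [if_neg (by rw [e3, ← e4, e6]; norm_num)] at e1
        rw [e6] at e2
        rcases hs i with e7 | e7 <;> rw [e7] at e2 <;> unfold Int.ModEq at e2 <;> omega
      · rw [if_pos (by rw [e3, ← e4, e6])] at e1
        rw [e6] at e2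
        rcases hs i with e7 | e7 <;> rw [e7] at e2 <;> unfold Int.ModEq at e2 <;> omega
    choose w hw using h4
    have hzev : ∀ i, (2 : ℤ) ∣ z i := by
      intro i
      have e1 := hev i
      have e2 := hw i
      omega
    have h5 := key z hz hzev
    rw [sum_psi] at h2
    have h6 : ∑ i, s i * x i - ∑ i, s i * z i = 4 * ∑ i, s i * w i := by
      rw [← sum_sub_distrib, mul_sum]
      apply sum_congr rfl
      intro i _
      rw [← mul_sub, hw i]; ring
    have h7 : (2 : ℤ) ∣ ∑ i, s i * w i := by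
      unfold Int.ModEq at h2
      omega
    have h8 : (2 : ℤ) ∣ ∑ i, w i := by
      have h9 : (2 : ℤ) ∣ ∑ i, (s i * w i - w i) := by
        apply dvd_sum
        intro i _
        rcases hs i with e7 | e7 <;> rw [e7] <;> omega
      rw [sum_sub_distrib] at h9
      omega
    have h9 := Λ.add_mem hz (h.four h8)
    have h10 : (z + fun i => 4 * w i) = x := by
      funext i
      have := hw i
      rw [Pi.add_apply]
      linarith
    rwa [h10] at h9

theorem psi_mem (hs : ∀ i, s i = 1 ∨ s i = -1) (hσ : ∀ x : Finset (Fin 24), x ∈ code Λ ↔ x.map σ.toEmbedding ∈ fam golayCode)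
    {x0 : Fin 24 → ℤ} (hx0 : x0 ∈ Λ) {j : Fin 24} (h0 : ∀ i, i ≠ j → x0 i = s i) (h0' : x0 j = -3 * s j)
    (x : Fin 24 → ℤ) : x ∈ Λ ↔ psi σ s x ∈ leechLattice := by
  have hodd0 : ∀ i, ¬ (2 : ℤ) ∣ x0 i := by
    intro i
    by_cases hi : i = j
    · subst hi; rw [h0']; rcases hs i with e | e <;> rw [e] <;> norm_num
    · rw [h0 i hi]; rcases hs i with e | e <;> rw [e] <;> norm_num
  have hp0 : psi σ s x0 ∈ leechLattice := by
    rw [mem_iff]
    right
    refine ⟨0, golayCode.zero_mem, ?_, ?_⟩
    · intro q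
      obtain ⟨i, rfl⟩ := σ.surjective q
      rw [psi_apply, lift_zero]
      by_cases hi : i = j
      · subst hi; rw [h0']; rcases hs i with e | e <;> rw [e] <;> decide
      · rw [h0 i hi]; rcases hs i with e | e <;> rw [e] <;> decide
    · rw [sum_psi, ← add_sum_erase univ (fun i => s i * x0 i) (mem_univ j)]
      have h1 : ∑ i ∈ univ.erase j, s i * x0 i = ∑ i ∈ univ.erase j, 1 := by
        apply sum_congr rfl
        intro i hi
        rw [h0 i (mem_erase.1 hi).1]
        rcases hs i with e | e <;> rw [e] <;> norm_num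
      rw [h1, h0', sum_const, card_erase_of_mem (mem_univ j), card_univ, Fintype.card_fin]
      rcases hs j with e | e <;> rw [e] <;> decide
  have heven : ∀ y : Fin 24 → ℤ, (∀ i, (2 : ℤ) ∣ y i) → (y ∈ Λ ↔ psi σ s y ∈ leechLattice) := by
    intro y hy
    rw [psi_even h σ s hs hσ hx0 h0 h0' hy, mem_iff]
    constructor
    · exact Or.inl
    · rintro (h1 | ⟨c, hc, h1, -⟩)
      · exact h1
      · exfalso
        have e1 := h1 (σ j)
        have e2 := hy j
        rw [psi_apply] at e1
        rcases hs j with e | e <;> rw [e] at e1 <;> unfold Int.ModEq at e1 <;> omega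
  by_cases hall : ∀ i, (2 : ℤ) ∣ x i
  · exact heven x hall
  · by_cases hall' : ∀ i, ¬ (2 : ℤ) ∣ x i
    · have h1 := heven (x - x0) (fun i => by
        have e1 := hall' i
        have e2 := hodd0 i
        rw [Pi.sub_apply]; omega)
      rw [psi_sub] at h1
      constructor
      · intro hx
        have := leechLattice.add_mem (h1.1 (Λ.sub_mem hx hx0)) hp0
        rwa [sub_add_cancel] at this
      · intro hx
        have := Λ.add_mem (h1.2 (leechLattice.sub_mem hx hp0)) hx0
        rwa [sub_add_cancel] at this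
    · push Not at hall hall'
      obtain ⟨i, hi⟩ := hall
      obtain ⟨k, hk⟩ := hall'
      constructor
      · intro hx
        exfalso
        have := h.par hx i k
        omega
      · intro hx
        exfalso
        rw [mem_iff] at hx
        rcases hx with ⟨c, -, h1, -⟩ | ⟨c, -, h1, -⟩
        · have e1 := h1 (σ i)
          rw [psi_apply] at e1
          rcases hs i with e | e <;> rw [e] at e1 <;> unfold Int.ModEq at e1 <;> omega
        · have e1 := h1 (σ k)
          rw [psi_apply] at e1
          rcases hs k with e | e <;> rw [e] at e1 <;> unfold Int.ModEq at e1 <;> omega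

/-- uniqueness for sublattices -/
theorem Lam.exists_psi {N : Finset (Fin 24 → ℤ)} (hN : ∀ x, x ∈ N ↔ x ∈ Λ ∧ sq x = 32) (hc : N.card = 196560) :
    ∃ (σ : Fin 24 ≃ GolayPt) (s : Fin 24 → ℤ), (∀ i, s i = 1 ∨ s i = -1) ∧ ∀ x, x ∈ Λ ↔ psi σ s x ∈ leechLattice := by
  obtain ⟨x0, hx0, hsq, hodd⟩ := (h.counting hN hc).2
  obtain ⟨j, hj, hj'⟩ := odd_shape hodd hsq
  obtain ⟨σ, -, hσ⟩ := (h.code_fam hN hc).unique golay_fam j none
  have h1 : ∀ i, i ≠ j → x0 i = 1 ∨ x0 i = -1 := by
    intro i hi
    have := hj' i hi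
    have h2 : (x0 i - 1) * (x0 i + 1) = 0 := by nlinarith
    rcases mul_eq_zero.1 h2 with h | h
    · left; omega
    · right; omega
  have h2 : x0 j = 3 ∨ x0 j = -3 := by
    have h2 : (x0 j - 3) * (x0 j + 3) = 0 := by nlinarith
    rcases mul_eq_zero.1 h2 with h | h
    · left; omega
    · right; omega
  refine ⟨σ, fun i => if i = j then (if x0 j = 3 then -1 else 1) else x0 i, ?_, ?_⟩
  · intro i
    dsimp only
    split_ifs with a b
    · right; rfl
    · left; rfl
    · exact h1 i a
  · refine psi_mem h σ _ ?_ hσ hx0 (j := j) ?_ ?_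
    · intro i
      split_ifs with a b
      · right; rfl
      · left; rfl
      · exact h1 i a
    · intro i hi
      rw [if_neg hi]
    · rw [if_pos rfl]
      rcases h2 with e | e
      · rw [e, if_pos rfl]; norm_num
      · rw [e, if_neg (by norm_num)]; norm_num

end transport

/-- the theorem -/
theorem leech_unique {B : Matrix (Fin 24) (Fin 24) ℤ} (h : Good B)
    (h4 : {x : Fin 24 → ℤ | bf B x x = 4}.ncard = 196560) (h6 : {x : Fin 24 → ℤ | bf B x x = 6}.ncard = 16773120)
    (h8 : {x : Fin 24 → ℤ | bf B x x = 8}.ncard = 398034000) :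
    ∃ f : (Fin 24 → ℤ) ≃+ leechLattice, ∀ x : Fin 24 → ℤ, sqNorm ((f x : leechLattice) : GolayPt → ℤ) = 8 * bf B x x := by
  classical
  have f4 := Set.finite_of_ncard_ne_zero (by rw [h4]; norm_num : {x : Fin 24 → ℤ | bf B x x = 4}.ncard ≠ 0)
  have f6 := Set.finite_of_ncard_ne_zero (by rw [h6]; norm_num : {x : Fin 24 → ℤ | bf B x x = 6}.ncard ≠ 0)
  have f8 := Set.finite_of_ncard_ne_zero (by rw [h8]; norm_num : {x : Fin 24 → ℤ | bf B x x = 8}.ncard ≠ 0)
  rw [Set.ncard_eq_toFinset_card _ f4] at h4
  rw [Set.ncard_eq_toFinset_card _ f6] at h6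
  rw [Set.ncard_eq_toFinset_card _ f8] at h8
  obtain ⟨e, he8, heo, her⟩ := h.exists_frame f4.toFinset f6.toFinset f8.toFinset (fun x hx => by simpa using hx)
    (fun x hx => by simpa using hx) (fun x hx => by simpa using hx) h4 h6 h8
  have hfr := h.frame_expand he8 heo
  let φ : (Fin 24 → ℤ) →+ (Fin 24 → ℤ) :=
    { toFun := fun x i => bf B x (e i)
      map_zero' := by funext i; exact bf_zero_left B (e i)
      map_add' := fun x y => by funext i; exact bf_add_left B x y (e i) }
  have hφ : ∀ x i, φ x i = bf B x (e i) := fun _ _ => rfl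
  have hdt : ∀ x y, dt (φ x) (φ y) = 8 * bf B x y := hfr
  have hsq : ∀ x, sq (φ x) = 8 * bf B x x := by
    intro x
    rw [← hdt]
    unfold sq dt
    exact sum_congr rfl (fun i _ => by ring)
  have hinj : Function.Injective φ := by
    rw [injective_iff_map_eq_zero]
    intro x hx
    by_contra hne
    have h1 := hsq x
    have h2 := h.pos x hne
    rw [hx] at h1
    have h3 : sq 0 = 0 := by unfold sq; simp
    omega
  have he : ∀ i, φ (e i) = Pi.single i 8 := by
    intro i
    funext k
    rw [hφ]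
    by_cases hk : k = i
    · subst hk; rw [Pi.single_eq_same, he8]
    · rw [Pi.single_eq_of_ne hk, heo i k (Ne.symm hk)]
  have hL : Lam φ.range :=
    { pm := by
        intro i k
        obtain ⟨z, hz⟩ := red_eq (her i k)
        refine ⟨z, ?_⟩
        have h1 := congrArg φ hz
        rw [map_sub, map_zsmul, he, he] at h1
        funext l
        have h2 := congrFun h1 l
        rw [Pi.sub_apply, Pi.smul_apply, smul_eq_mul] at h2
        rw [Pi.sub_apply]
        by_cases hli : l = i <;> by_cases hlk : l = k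
        · subst hli; subst hlk
          rw [Pi.single_eq_same] at h2 ⊢; omega
        · subst hli
          rw [Pi.single_eq_same, Pi.single_eq_of_ne hlk] at h2 ⊢; omega
        · subst hlk
          rw [Pi.single_eq_same, Pi.single_eq_of_ne hli] at h2 ⊢; omega
        · rw [Pi.single_eq_of_ne hlk, Pi.single_eq_of_ne hli] at h2 ⊢; omega
      e8 := fun i => ⟨e i, he i⟩
      dot := by
        rintro _ ⟨x, rfl⟩ _ ⟨y, rfl⟩
        exact ⟨_, hdt x y⟩
      ev := by
        rintro _ ⟨x, rfl⟩
        rw [hsq]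
        obtain ⟨k, hk⟩ := h.even x
        exact ⟨k, by rw [hk]; ring⟩
      min := by
        rintro _ ⟨x, rfl⟩ hne
        rw [hsq]
        have : x ≠ 0 := by rintro rfl; exact hne (map_zero φ)
        have := h.ge4 this
        omega }
  have hN : ∀ x, x ∈ f4.toFinset.image φ ↔ x ∈ φ.range ∧ sq x = 32 := by
    intro x
    rw [mem_image]
    constructor
    · rintro ⟨y, hy, rfl⟩
      have hy' : bf B y y = 4 := by simpa using hy
      exact ⟨⟨y, rfl⟩, by rw [hsq, hy']; norm_num⟩
    · rintro ⟨⟨y, rfl⟩, hy⟩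
      rw [hsq] at hy
      refine ⟨y, ?_, rfl⟩
      rw [Set.Finite.mem_toFinset]
      show bf B y y = 4
      omega
  obtain ⟨σ, s, hs, hmem⟩ := hL.exists_psi hN (by rw [card_image_of_injective _ hinj, h4])
  have hss : ∀ i, s i * s i = 1 := by
    intro i; rcases hs i with a | a <;> rw [a] <;> norm_num
  let F : (Fin 24 → ℤ) →+ leechLattice :=
    { toFun := fun x => ⟨psi σ s (φ x), (hmem _).1 ⟨x, rfl⟩⟩
      map_zero' := by
        apply Subtype.ext
        show psi σ s (φ 0) = 0
        rw [map_zero]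
        funext q; simp [psi]
      map_add' := by
        intro x y
        apply Subtype.ext
        show psi σ s (φ (x + y)) = psi σ s (φ x) + psi σ s (φ y)
        rw [map_add, psi_add] }
  have hF : Function.Bijective F := by
    constructor
    · intro x y hxy
      have h1 : psi σ s (φ x) = psi σ s (φ y) := congrArg Subtype.val hxy
      apply hinj
      funext i
      have h2 := congrFun h1 (σ i)
      rw [psi_apply, psi_apply] at h2
      have h3 := congrArg (fun t => s i * t) h2
      simp only [← mul_assoc, hss, one_mul] at h3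
      exact h3
    · rintro ⟨y, hy⟩
      have h1 : psi σ s (fun i => s i * y (σ i)) = y := by
        funext q
        obtain ⟨i, rfl⟩ := σ.surjective q
        rw [psi_apply, ← mul_assoc, hss, one_mul]
      have h2 := (hmem (fun i => s i * y (σ i))).2 (by rw [h1]; exact hy)
      obtain ⟨x, hx⟩ := h2
      refine ⟨x, Subtype.ext ?_⟩
      show psi σ s (φ x) = y
      rw [hx, h1]
  refine ⟨AddEquiv.ofBijective F hF, ?_⟩
  intro x
  show sqNorm (psi σ s (φ x)) = _
  rw [sqNorm_psi σ s hs, hsq]

end Cfsg.Agent.Lch
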