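import Cfsg.Agent.Stn.Span

/-!
# Sublattices of ℤ^24 with many vectors of square length 32
-/

set_option autoImplicit false

namespace Cfsg.Agent.Lch

open Finset Cfsg.Agent.Stn

/-- square length -/
def sq (x : Fin 24 → ℤ) : ℤ := ∑ i, x i ^ 2
/-- dot product -/
def dt (x y : Fin 24 → ℤ) : ℤ := ∑ i, x i * y i

/-- conditions on the lattice -/
structure Lam (Λ : AddSubgroup (Fin 24 → ℤ)) : Prop where
  pm : ∀ i j : Fin 24, (Pi.single i 4 - Pi.single j 4 : Fin 24 → ℤ) ∈ Λ
  e8 : ∀ i : Fin 24, (Pi.single i 8 : Fin 24 → ℤ) ∈ Λ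
  dot : ∀ x ∈ Λ, ∀ y ∈ Λ, (8 : ℤ) ∣ dt x y
  ev : ∀ x ∈ Λ, (16 : ℤ) ∣ sq x
  min : ∀ x ∈ Λ, x ≠ 0 → 32 ≤ sq x

/-- twice the characteristic function -/
def ch (S : Finset (Fin 24)) (i : Fin 24) : ℤ := if i ∈ S then 2 else 0

theorem dt_single (x : Fin 24 → ℤ) (i : Fin 24) (a : ℤ) : dt x (Pi.single i a) = x i * a := by
  unfold dt
  rw [sum_eq_single i]
  · rw [Pi.single_eq_same]
  · intro j _ hj
    rw [Pi.single_eq_of_ne hj, mul_zero]
  · intro h; exact absurd (mem_univ i) h

theorem dt_sub (x y z : Fin 24 → ℤ) : dt x (y - z) = dt x y - dt x z := by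
  unfold dt
  rw [← sum_sub_distrib]
  exact sum_congr rfl (fun i _ => by rw [Pi.sub_apply]; ring)

/-- at most half of the subsets have a given parity -/
theorem half_par {ι : Type*} [DecidableEq ι] {S : Finset ι} (hS : S.card = 8) (c : ℕ) :
    (S.powerset.filter fun P => P.card % 2 = c).card ≤ 128 := by
  set E := S.powerset.filter fun P => P.card % 2 = c with hE
  obtain ⟨d, hd⟩ : S.Nonempty := card_pos.1 (by omega)
  have h2 : Disjoint E (E.image fun e => symmDiff e {d}) := by
    rw [disjoint_left]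
    intro x hx hx'
    rw [mem_image] at hx'
    obtain ⟨y, hy, rfl⟩ := hx'
    rw [hE, mem_filter] at hx hy
    have h3 : (symmDiff y {d}).card + 2 * (y ∩ {d}).card = y.card + 1 := by
      have e1 : symmDiff y {d} = (y \ {d}) ∪ ({d} \ y) := rfl
      have e2 : Disjoint (y \ {d}) ({d} \ y) := disjoint_sdiff_sdiff
      rw [e1, card_union_of_disjoint e2]
      have h3 := card_sdiff_add_card_inter y {d}
      have h4 := card_sdiff_add_card_inter {d} y
      rw [inter_comm {d} y, card_singleton] at h4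
      omega
    have h4 := hx.2
    have h5 := hy.2
    omega
  have h3 : (E.image fun e => symmDiff e {d}).card = E.card := by
    apply card_image_of_injective
    intro x y hxy
    exact symmDiff_left_injective {d} hxy
  have h4 : E ∪ (E.image fun e => symmDiff e {d}) ⊆ S.powerset := by
    intro x hx
    rw [mem_union] at hx
    rcases hx with hx | hx
    · rw [hE, mem_filter] at hx; exact hx.1
    · rw [mem_image] at hx
      obtain ⟨y, hy, rfl⟩ := hx
      rw [hE, mem_filter, mem_powerset] at hy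
      rw [mem_powerset]
      intro t ht
      rw [mem_symmDiff, mem_singleton] at ht
      rcases ht with ht | ht
      · exact hy.1 ht.1
      · rw [ht.1]; exact hd
  have h5 := card_le_card h4
  rw [card_union_of_disjoint h2, h3, card_powerset, hS] at h5
  norm_num at h5
  omega

/-- families of 8-sets of 24 points meeting in at most 4 points -/
theorem packing {C8 : Finset (Finset (Fin 24))} (h8 : ∀ S ∈ C8, S.card = 8) (h4 : ∀ S ∈ C8, ∀ T ∈ C8, S ≠ T → (S ∩ T).card ≤ 4) :
    C8.card ≤ 759 := by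
  have h := moment C8 (univ : Finset (Fin 24)) 5
  have h1 : ∀ S ∈ C8, (S ∩ univ).card.choose 5 = 56 := by
    intro S hS
    rw [inter_univ, h8 S hS]; rfl
  rw [sum_congr rfl h1, sum_const, smul_eq_mul] at h
  have h2 : ∑ Y ∈ (univ : Finset (Fin 24)).powersetCard 5, (C8.filter fun b => Y ⊆ b).card ≤ ∑ Y ∈ (univ : Finset (Fin 24)).powersetCard 5, 1 := by
    apply sum_le_sum
    intro Y hY
    rw [card_le_one]
    intro a ha b hb
    rw [mem_filter] at ha hb
    by_contra hne
    have h3 := h4 a ha.1 b hb.1 hne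
    have h5 := card_le_card (subset_inter ha.2 hb.2)
    rw [(mem_powersetCard.1 hY).2] at h5
    omega
  rw [sum_const, card_powersetCard, card_univ, Fintype.card_fin, ← h] at h2
  norm_num [Nat.choose] at h2
  omega

namespace Lam
variable {Λ : AddSubgroup (Fin 24 → ℤ)} (h : Lam Λ)
include h

theorem par {x : Fin 24 → ℤ} (hx : x ∈ Λ) (i j : Fin 24) : (2 : ℤ) ∣ x i - x j := by
  have := h.dot x hx _ (h.pm i j)
  rw [dt_sub, dt_single, dt_single] at this
  omega

theorem four {y : Fin 24 → ℤ} (hy : (2 : ℤ) ∣ ∑ i, y i) : (fun i => 4 * y i) ∈ Λ := by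
  obtain ⟨k, hk⟩ := hy
  have h1 : (∑ i, y i • (Pi.single i 4 - Pi.single 0 4 : Fin 24 → ℤ)) + k • (Pi.single 0 8 : Fin 24 → ℤ) ∈ Λ :=
    Λ.add_mem (Λ.sum_mem (fun i _ => Λ.zsmul_mem (h.pm i 0) _)) (Λ.zsmul_mem (h.e8 0) _)
  have h2 : (∑ i, y i • (Pi.single i 4 - Pi.single 0 4 : Fin 24 → ℤ)) + k • (Pi.single 0 8 : Fin 24 → ℤ) = fun i => 4 * y i := by
    funext j
    rw [Pi.add_apply, Finset.sum_apply]
    simp only [Pi.smul_apply, Pi.sub_apply, smul_eq_mul, mul_sub]
    rw [sum_sub_distrib, ← sum_mul, hk]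
    rw [sum_eq_single j]
    · rw [Pi.single_eq_same]
      by_cases hj : j = 0
      · subst hj; rw [Pi.single_eq_same, Pi.single_eq_same]; ring
      · rw [Pi.single_eq_of_ne hj, Pi.single_eq_of_ne hj]; ring
    · intro i _ hij
      rw [Pi.single_eq_of_ne (Ne.symm hij), mul_zero]
    · intro hj; exact absurd (mem_univ j) hj
  rwa [h2] at h1

theorem four' {y : Fin 24 → ℤ} (hy : (fun i => 4 * y i) ∈ Λ) : (2 : ℤ) ∣ ∑ i, y i := by
  by_contra hn
  have h1 : (2 : ℤ) ∣ ∑ i, (y i - (Pi.single 0 1 : Fin 24 → ℤ) i) := by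
    rw [sum_sub_distrib, sum_pi_single']
    simp only [mem_univ, if_true]
    omega
  have h2 := Λ.sub_mem hy (h.four h1)
  have h3 : ((fun i => 4 * y i) - fun i => 4 * (y i - (Pi.single 0 1 : Fin 24 → ℤ) i)) = Pi.single 0 4 := by
    funext i
    rw [Pi.sub_apply]
    by_cases hi : i = 0
    · subst hi; rw [Pi.single_eq_same, Pi.single_eq_same]; ring
    · rw [Pi.single_eq_of_ne hi, Pi.single_eq_of_ne hi]; ring
  rw [h3] at h2
  have h4 := h.min _ h2 (by
    intro h0
    have := congrFun h0 0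
    rw [Pi.single_eq_same] at this
    exact absurd this (by norm_num))
  have h5 : sq (Pi.single 0 4) = 16 := by
    unfold sq
    rw [sum_eq_single 0]
    · rw [Pi.single_eq_same]; norm_num
    · intro i _ hi
      rw [Pi.single_eq_of_ne hi]; norm_num
    · intro h; exact absurd (mem_univ _) h
  omega

omit h in
variable (Λ) in
/-- the code -/
noncomputable def code : Finset (Finset (Fin 24)) := by
  classical exact univ.filter fun S => ∃ x ∈ Λ, ∀ i, (4 : ℤ) ∣ x i - ch S i

omit h in
theorem mem_code {S : Finset (Fin 24)} : S ∈ code Λ ↔ ∃ x ∈ Λ, ∀ i, (4 : ℤ) ∣ x i - ch S i := by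
  classical
  unfold code
  rw [mem_filter]
  exact ⟨fun h => h.2, fun h => ⟨mem_univ _, h⟩⟩

omit h in
theorem code_zero : ∅ ∈ code Λ := by
  rw [mem_code]
  exact ⟨0, Λ.zero_mem, fun i => by simp [ch]⟩

omit h in
theorem ch_symm (S T : Finset (Fin 24)) (i : Fin 24) : (4 : ℤ) ∣ ch S i + ch T i - ch (symmDiff S T) i := by
  unfold ch
  by_cases h1 : i ∈ S <;> by_cases h2 : i ∈ T <;> simp [h1, h2, mem_symmDiff]

omit h in
theorem code_add : ∀ S ∈ code Λ, ∀ T ∈ code Λ, symmDiff S T ∈ code Λ := by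
  intro S hS T hT
  rw [mem_code] at hS hT ⊢
  obtain ⟨x, hx, hx'⟩ := hS
  obtain ⟨y, hy, hy'⟩ := hT
  refine ⟨x + y, Λ.add_mem hx hy, ?_⟩
  intro i
  have h1 := hx' i
  have h2 := hy' i
  have h3 := ch_symm S T i
  rw [Pi.add_apply]
  omega

/-- representatives -/
theorem code_rep {S : Finset (Fin 24)} (hS : S ∈ code Λ) (hne : S.Nonempty) :
    ∃ x ∈ Λ, ∀ i, (i ∈ S → x i = 2 ∨ x i = -2) ∧ (i ∉ S → x i = 0) := by
  rw [mem_code] at hS
  obtain ⟨x, hx, hx'⟩ := hS
  choose y hy using hx'
  obtain ⟨p, hp⟩ := hne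
  by_cases hpar : (2 : ℤ) ∣ ∑ i, y i
  · refine ⟨x - fun i => 4 * y i, Λ.sub_mem hx (h.four hpar), ?_⟩
    intro i
    have := hy i
    rw [Pi.sub_apply]
    constructor
    · intro hi; left; simp only [ch, if_pos hi] at this; linarith
    · intro hi; simp only [ch, if_neg hi] at this; linarith
  · have h1 : (2 : ℤ) ∣ ∑ i, (y i + (Pi.single p 1 : Fin 24 → ℤ) i) := by
      rw [sum_add_distrib, sum_pi_single']
      simp only [mem_univ, if_true]
      omega
    refine ⟨x - fun i => 4 * (y i + (Pi.single p 1 : Fin 24 → ℤ) i), Λ.sub_mem hx (h.four h1), ?_⟩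
    intro i
    have := hy i
    rw [Pi.sub_apply]
    by_cases hip : i = p
    · subst hip
      rw [Pi.single_eq_same]
      simp only [ch, if_pos hp] at this
      exact ⟨fun _ => Or.inr (by linarith), fun hi => absurd hp hi⟩
    · rw [Pi.single_eq_of_ne hip]
      constructor
      · intro hi; left; simp only [ch, if_pos hi] at this; linarith
      · intro hi; simp only [ch, if_neg hi] at this; linarith

theorem code_card {S : Finset (Fin 24)} (hS : S ∈ code Λ) : 4 ∣ S.card ∧ (S ≠ ∅ → 8 ≤ S.card) := by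
  rcases S.eq_empty_or_nonempty with rfl | hne
  · exact ⟨by simp, fun h => absurd rfl h⟩
  · obtain ⟨x, hx, hx'⟩ := h.code_rep hS hne
    have h1 : sq x = 4 * S.card := by
      unfold sq
      have : ∀ i, x i ^ 2 = if i ∈ S then 4 else 0 := by
        intro i
        split_ifs with hi
        · rcases (hx' i).1 hi with h2 | h2 <;> rw [h2] <;> norm_num
        · rw [(hx' i).2 hi]; norm_num
      rw [sum_congr rfl (fun i _ => this i), sum_ite_mem, univ_inter, sum_const, nsmul_eq_mul]
      ring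
    have h2 := h.ev x hx
    have h3 := h.min x hx (by
      rintro rfl
      obtain ⟨p, hp⟩ := hne
      rcases (hx' p).1 hp with h4 | h4 <;> simp at h4)
    rw [h1] at h2 h3
    constructor
    · omega
    · intro _; omega

theorem code_even : ∀ S ∈ (code Λ : Set (Finset (Fin 24))), ∀ T ∈ (code Λ : Set (Finset (Fin 24))), 2 ∣ (S ∩ T).card := by
  intro S hS T hT
  have h1 := (h.code_card hS).1
  have h2 := (h.code_card hT).1
  have h3 := (h.code_card (code_add S hS T hT)).1
  have h4 := card_symm S T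
  omega

theorem code_pow : ∃ k ≤ 12, (code Λ).card = 2 ^ k := by
  have h1 : fam (spanC (code Λ : Set (Finset (Fin 24)))) = code Λ := by
    ext S
    rw [mem_fam]
    constructor
    · intro hS
      exact spanC_ind (P := fun S => S ∈ code Λ) code_zero (fun b hb => hb) (fun s t _ _ hs ht => code_add s hs t ht) hS
    · intro hS
      exact ind_mem_spanC hS
  have h2 := card_fam (spanC (code Λ : Set (Finset (Fin 24))))
  rw [h1] at h2
  refine ⟨_, ?_, h2⟩
  have h3 := finrank_dualC (spanC (code Λ : Set (Finset (Fin 24))))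
  have h4 := Submodule.finrank_mono (self_orth h.code_even)
  rw [Fintype.card_fin] at h3
  omega

end Lam

end Cfsg.Agent.Lch
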